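import Mathlib
import Cfsg.Prelude.Def_LieExceptional
import Cfsg.Agent.Lib.ZassFeit.Count

/-!
Products of two involutions in Zassenhaus groups with two-point stabilizers of odd order.
-/

set_option autoImplicit false

namespace CfsgLib.ZassFeit

open Cfsg MulAction Finset

variable {G Ω : Type*} [Group G] [MulAction G Ω]

theorem mul_self_of_orderOf {x : G} (hx : orderOf x = 2) : x * x = 1 := by
  rw [← pow_two, ← hx]; exact pow_orderOf_eq_one x

theorem inv_eq_of_orderOf {x : G} (hx : orderOf x = 2) : x⁻¹ = x :=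
  inv_eq_of_mul_eq_one_left (mul_self_of_orderOf hx)

/-- The sum of the centralizer orders over a union of classes. -/
theorem sum_card_centralizer [Fintype G] (P : ConjClasses G → Prop)
    [DecidablePred fun g : G => P (ConjClasses.mk g)] :
    ∑ g ∈ univ.filter (fun g : G => P (ConjClasses.mk g)),
      Nat.card (Subgroup.centralizer ({g} : Set G)) =
      Nat.card {C : ConjClasses G // P C} * Nat.card G := by
  classical
  rw [← sum_fiberwise_of_maps_to (t := univ.filter P) (g := ConjClasses.mk)
    (fun g hg => by simpa using hg), Nat.card_eq_fintype_card (α := {C // P C}),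
    Fintype.card_subtype, card_eq_sum_ones, sum_mul]
  refine sum_congr rfl fun C hC => ?_
  obtain ⟨x, rfl⟩ := ConjClasses.mk_surjective C
  have h0 : (univ.filter (fun g : G => P (ConjClasses.mk g))).filter
      (fun g => ConjClasses.mk g = ConjClasses.mk x) = univ.filter (fun g => IsConj g x) := by
    ext g
    simp only [mem_filter, mem_univ, true_and, ConjClasses.mk_eq_mk_iff_isConj]
    refine ⟨fun h => h.2, fun h => ⟨?_, h⟩⟩
    rw [ConjClasses.mk_eq_mk_iff_isConj.mpr h]
    exact (mem_filter.mp hC).2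
  rw [sum_congr rfl (g := fun _ => Nat.card (Subgroup.centralizer ({x} : Set G))), sum_const,
    h0, ← Fintype.card_subtype, ← Nat.card_eq_fintype_card, CfsgLib.Char.card_isConj_eq_index,
    smul_eq_mul, Subgroup.index_mul_card, one_mul]
  · intro g hg
    have h := ConjClasses.mk_eq_mk_iff_isConj.mp (mem_filter.mp hg).2
    have h1 := (Subgroup.centralizer ({x} : Set G)).index_mul_card
    have h2 := (Subgroup.centralizer ({g} : Set G)).index_mul_card
    have h3 : (Subgroup.centralizer ({g} : Set G)).index =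
        (Subgroup.centralizer ({x} : Set G)).index := by
      rw [← CfsgLib.Char.card_isConj_eq_index, ← CfsgLib.Char.card_isConj_eq_index]
      exact Nat.card_congr (Equiv.subtypeEquivRight fun y => ⟨fun h' => h'.trans h,
        fun h' => h'.trans h.symm⟩)
    rw [h3, ← h1] at h2
    exact Nat.eq_of_mul_eq_mul_left (Nat.pos_of_ne_zero Subgroup.FiniteIndex.index_ne_zero) h2

section

variable [Fintype G] [Fintype Ω] (hZ : IsZassenhausGroup G Ω)
  {e : ℕ} (he : ∀ a b : Ω, a ≠ b → Nat.card ↥(stabilizer G a ⊓ stabilizer G b) = e) (hodd : Odd e)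
  (hinv : ∀ a b : Ω, a ≠ b → ∀ s : G, s • a = b → s • b = a →
    ∀ x ∈ stabilizer G a ⊓ stabilizer G b, s * x * s⁻¹ = x⁻¹)
  {a : Ω} {H : Subgroup G}
  (hHa : H ≤ stabilizer G a) (hHcard : Nat.card H + 1 = Fintype.card Ω)
  (hHfix : ∀ u ∈ H, u ≠ 1 → ∀ c : Ω, u • c = c → c = a)

omit [Fintype G] [Fintype Ω] in
include hHa hHfix in
theorem fix_of_mul_mem {x y : G} (hx : orderOf x = 2) (hy : orderOf y = 2) (hu : x * y ∈ H)
    (hu1 : x * y ≠ 1) : x • a = a ∧ y • a = a := by
  have h1 : x • a = a := by
    refine fix_of_conj_mem hHa hHfix hu hu1 ?_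
    have : x * (x * y) * x⁻¹ = (x * y)⁻¹ := by
      rw [← mul_assoc, mul_self_of_orderOf hx, mul_inv_rev, inv_eq_of_orderOf hy, one_mul]
    rw [this]
    exact H.inv_mem hu
  refine ⟨h1, ?_⟩
  have h2 : (x * y) • a = a := hHa hu
  rw [mul_smul, smul_eq_iff_eq_inv_smul, inv_smul_eq_iff.mpr h1.symm] at h2
  exact h2

omit [Fintype G] in
include he hodd in
theorem even_of_invol_fix {x : G} (hx : orderOf x = 2) {c : Ω} (hc : x • c = c) {h : ℕ}
    (hh : Fintype.card Ω = h + 1) : Even h := by
  classical
  have h1 := card_fix_invol he hodd hx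
  by_contra hodd'
  rw [if_pos (by rw [hh, Nat.even_add_one]; exact hodd'), card_eq_zero, filter_eq_empty_iff] at h1
  exact h1 (mem_univ c) hc

include hZ he hodd hinv hHa hHcard hHfix

/-- An involution fixing `a` is central in the kernel `H`. -/
theorem kernel_le_centralizer {x : G} (hx : orderOf x = 2) (hxa : x • a = a) :
    x ∈ H ∧ H ≤ Subgroup.centralizer ({x} : Set G) := by
  classical
  have hx1 : x ≠ 1 := by rintro rfl; simp at hx
  have hxH : x ∈ H := by
    refine mem_kernel_of_fix hZ hHa hHcard hHfix hxa fun c hc => ?_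
    by_contra hca
    exact hx1 (eq_one_of_sq_of_fix he hodd hca hc hxa (hx ▸ pow_orderOf_eq_one x))
  refine ⟨hxH, ?_⟩
  have heven := even_of_invol_fix he hodd hx hxa hHcard.symm
  have h1 := card_invol_fix hZ he hodd hinv hHcard.symm heven a
  have h2 := card_le_mul_card_image_of_maps_to (s := univ.filter (fun g : G => g • a = a))
    (t := univ.filter (fun t : G => orderOf t = 2 ∧ t • a = a)) (f := fun g => g * x * g⁻¹)
    (fun g hg => by
      simp only [mem_filter, mem_univ, true_and] at hg ⊢
      exact ⟨by rw [← hx]; exact (MulAut.conj g).orderOf_eq x,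
        by rw [mul_smul, mul_smul, inv_smul_eq_iff.mpr hg.symm, hxa, hg]⟩)
    (Nat.card (Subgroup.centralizer ({x} : Set G))) (fun t _ => card_conj_fiber_le _ x t)
  obtain ⟨b, hab⟩ := exists_ne hZ a
  rw [h1, card_filter_mem (stabilizer G a) (fun g => g • a = a) (fun _ => Iff.rfl),
    card_stab hZ hab, he a b hab, ← hHcard, Nat.add_sub_cancel] at h2
  have h3 := Nat.le_of_mul_le_mul_right h2 hodd.pos
  exact (Subgroup.eq_of_le_of_card_ge (centralizer_le_kernel hZ hHa hHcard hHfix hxH hx1) h3).ge

theorem orderOf_mul_invol {x y : G} (hx : orderOf x = 2) (hy : orderOf y = 2) (hu : x * y ∈ H)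
    (hu1 : x * y ≠ 1) : orderOf (x * y) = 2 := by
  obtain ⟨hxa, hya⟩ := fix_of_mul_mem hHa hHfix hx hy hu hu1
  have h1 := (kernel_le_centralizer hZ he hodd hinv hHa hHcard hHfix hx hxa).2
    (kernel_le_centralizer hZ he hodd hinv hHa hHcard hHfix hy hya).1 x rfl
  refine orderOf_eq_prime ?_ hu1
  rw [pow_two]
  nth_rewrite 1 [h1]
  rw [mul_assoc, ← mul_assoc x, mul_self_of_orderOf hx, one_mul, mul_self_of_orderOf hy]

theorem le_card_classes_avoiding (hlt : e < Nat.card H) :
    e ≤ Nat.card {C : ConjClasses G // ∀ g : G, ConjClasses.mk g = C → g ∉ H} := by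
  classical
  set h := Nat.card H with hh
  set k := Nat.card {C : ConjClasses G // ∀ g : G, ConjClasses.mk g = C → g ∉ H} with hk
  set T := univ.filter (fun t : G => orderOf t = 2) with hT
  let P : ConjClasses G → Prop := fun C => ∀ g : G, ConjClasses.mk g = C → g ∉ H
  obtain ⟨b, hab⟩ := exists_ne hZ a
  have hG : Nat.card G = (h + 1) * (h * e) := by
    rw [card_group hZ hab, he a b hab, ← hHcard]; simp
  have h1 : ((T ×ˢ T).filter (fun p => P (ConjClasses.mk (p.1 * p.2)))).card ≤
      k * ((h + 1) * (h * e)) := by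
    rw [← hG, hk, ← sum_card_centralizer P, card_eq_sum_card_fiberwise (f := fun p => p.1 * p.2)
      (t := univ.filter (fun g : G => P (ConjClasses.mk g)))
      (fun p hp => by simpa using (mem_filter.mp hp).2)]
    refine sum_le_sum fun g _ => le_trans ?_ (card_conj_fiber_le univ g g⁻¹)
    refine card_le_card_of_injOn (fun p => p.1) (fun p hp => ?_) (fun p hp q hq hpq => ?_)
    · simp only [hT, coe_filter, mem_filter, mem_product, mem_univ, true_and,
        Set.mem_ofPred_eq] at hp ⊢
      obtain ⟨⟨⟨h1, h2⟩, -⟩, rfl⟩ := hp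
      rw [← mul_assoc, mul_self_of_orderOf h1, mul_inv_rev, inv_eq_of_orderOf h2, one_mul]
    · simp only [coe_filter, mem_filter, Set.mem_ofPred_eq] at hp hq
      have h3 : p.1 = q.1 := hpq
      refine Prod.ext h3 ?_
      have h4 := hp.2.trans hq.2.symm
      rwa [h3, mul_left_cancel_iff] at h4
  -- the remaining pairs
  have h2 : ∀ p ∈ (T ×ˢ T).filter (fun p => ¬ P (ConjClasses.mk (p.1 * p.2))),
      p.1 = p.2 ∨ ∃ c : Ω, p.1 • c = c ∧ p.2 • c = c := by
    intro p hp
    simp only [hT, P, mem_filter, mem_product, mem_univ, true_and, not_forall, not_not] at hp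
    obtain ⟨⟨hx, hy⟩, u, hu, huH⟩ := hp
    obtain ⟨z, hz⟩ := isConj_iff.mp (ConjClasses.mk_eq_mk_iff_isConj.mp hu.symm)
    by_cases h1 : p.1 * p.2 = 1
    · left
      rw [← inv_eq_of_orderOf hx, inv_eq_iff_mul_eq_one, h1]
    · right
      have h3 : (z * p.1 * z⁻¹) * (z * p.2 * z⁻¹) = u := by rw [← hz]; group
      obtain ⟨h4, h5⟩ := fix_of_mul_mem hHa hHfix (x := z * p.1 * z⁻¹) (y := z * p.2 * z⁻¹)
        (by rw [← hx]; exact (MulAut.conj z).orderOf_eq _)
        (by rw [← hy]; exact (MulAut.conj z).orderOf_eq _) (h3 ▸ huH)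
        (by rw [h3, ← hz]; simpa using h1)
      rw [mul_smul, mul_smul, smul_eq_iff_eq_inv_smul] at h4 h5
      exact ⟨_, h4, h5⟩
  have h3 := card_filter_add_card_filter_not (s := T ×ˢ T)
    (fun p => P (ConjClasses.mk (p.1 * p.2)))
  have hTc := card_invol hZ he hodd hinv hHcard.symm
  rw [← hT] at hTc
  rw [card_product, hTc] at h3
  have hepos := hodd.pos
  split_ifs at h3 hTc with heven
  · have h4 : ((T ×ˢ T).filter (fun p => ¬ P (ConjClasses.mk (p.1 * p.2)))).card ≤
        (h + 1) * (e * e) := by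
      refine le_trans (card_le_card (t := univ.biUnion fun c : Ω =>
        (univ.filter (fun t : G => orderOf t = 2 ∧ t • c = c)) ×ˢ
          (univ.filter (fun t : G => orderOf t = 2 ∧ t • c = c))) fun p hp => ?_)
        (le_trans card_biUnion_le ?_)
      · have hp' := (mem_filter.mp hp).1
        simp only [hT, mem_filter, mem_product, mem_univ, true_and] at hp'
        simp only [mem_biUnion, mem_filter, mem_product, mem_univ, true_and]
        rcases h2 p hp with h5 | ⟨c, h5, h6⟩
        · have h7 := card_fix_invol he hodd hp'.1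
          rw [if_neg (by rw [← hHcard, Nat.even_add_one]; simpa using heven)] at h7
          obtain ⟨c, hc⟩ := card_pos.mp (h7 ▸ Nat.one_pos)
          have hc' := (mem_filter.mp hc).2
          exact ⟨c, ⟨hp'.1, hc'⟩, hp'.2, h5 ▸ hc'⟩
        · exact ⟨c, ⟨hp'.1, h5⟩, hp'.2, h6⟩
      · simp only [card_product, card_invol_fix hZ he hodd hinv hHcard.symm heven, sum_const,
          card_univ, ← hHcard, smul_eq_mul]
        rfl
    have h5 : (e * (h + 1)) * (e * h) ≤ (e * (h + 1)) * (k * h) := by nlinarith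
    have h6 := Nat.le_of_mul_le_mul_left h5 (by positivity)
    exact Nat.le_of_mul_le_mul_right h6 (by omega)
  · have h4 : ((T ×ˢ T).filter (fun p => ¬ P (ConjClasses.mk (p.1 * p.2)))).card ≤ e * h := by
      rw [← hTc]
      have h5 : ∀ p ∈ (T ×ˢ T).filter (fun p => ¬ P (ConjClasses.mk (p.1 * p.2))),
          p.1 = p.2 := by
        intro p hp
        rcases h2 p hp with h5 | ⟨c, h5, -⟩
        · exact h5
        · have hp' := (mem_product.mp (mem_filter.mp hp).1).1
          exact absurd (even_of_invol_fix he hodd (mem_filter.mp hp').2 h5 hHcard.symm) heven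
      refine card_le_card_of_injOn (fun p => p.1)
        (fun p hp => (mem_product.mp (mem_filter.mp hp).1).1) (fun p hp q hq hpq => ?_)
      have h6 : p.1 = q.1 := hpq
      exact Prod.ext h6 (by rw [← h5 p hp, ← h5 q hq, h6])
    have h5 : (e * h) * (e * h) ≤ (e * h) * (1 + k * (h + 1)) := by nlinarith
    have h6 := Nat.le_of_mul_le_mul_left h5 (Nat.mul_pos hepos (by omega))
    by_contra h7
    have h8 : k + 1 ≤ e := by omega
    nlinarith

end

end CfsgLib.ZassFeit
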